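/-
The stabiliser of three points in the group of the length-24 code is PSL(3, 4) (helper16).
-/
import Cfsg.Agent.Lib.ToddCox.M21O.Main
import Cfsg.Agent.Lib.ToddCox.F4
import Cfsg.Agent.Lib.ToddCox.OpMap
import Cfsg.Agent.Lib.Golay.Transfer
import Cfsg.Agent.Lib.Golay.Simple
import Cfsg.Agent.Lib.Classical.Card2

set_option autoImplicit false
set_option maxRecDepth 100000

namespace Cfsg.Agent.Lib.ToddCox.M21

open Cfsg Cfsg.Agent.Lib.Golay OPM21

abbrev Q : Type := PresentedGroup (Spor.coxRelators edges ∪ {r | r ∈ extra})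
abbrev M3 : Type := Matrix (Fin 3) (Fin 3) F4
abbrev SL3 : Type := Matrix.SpecialLinearGroup (Fin 3) F4
abbrev PSL3 : Type := Matrix.ProjectiveSpecialLinearGroup (Fin 3) F4

theorem det1 {M : M3} (h : M * M = 1) : M.det = 1 := by
  have h2 : M.det * M.det = 1 := by rw [← Matrix.det_mul, h, Matrix.det_one]
  exact F4.sq_eq_one h2

def ma : M3 := !![.l, .o, .o; .v, .l, .v; .o, .o, .l]
def mb : M3 := !![.o, .w, .l; .w, .w, .w; .w, .v, .v]
def mc : M3 := !![.l, .o, .o; .v, .l, .o; .o, .o, .l]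
def md : M3 := !![.w, .l, .w; .l, .v, .v; .w, .v, .o]
def me : M3 := !![.l, .o, .o; .v, .o, .w; .w, .v, .o]

def T : Gen → SL3
  | .a => ⟨ma, det1 (by decide +kernel)⟩
  | .b => ⟨mb, det1 (by decide +kernel)⟩
  | .c => ⟨mc, det1 (by decide +kernel)⟩
  | .d => ⟨md, det1 (by decide +kernel)⟩
  | .e => ⟨me, det1 (by decide +kernel)⟩

theorem T_center : ∀ r ∈ coxList edges ++ extra, ∃ c : F4, c ^ Fintype.card (Fin 3) = 1 ∧ Matrix.scalar (Fin 3) c = ((FreeGroup.lift T r : SL3) : M3) := by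
  decide +kernel

noncomputable def Tq (a : Gen) : PSL3 := QuotientGroup.mk (T a)

theorem lift_q (r : FreeGroup Gen) : FreeGroup.lift Tq r = QuotientGroup.mk (FreeGroup.lift T r) := by
  have h : (QuotientGroup.mk' (Subgroup.center SL3)).comp (FreeGroup.lift T) = FreeGroup.lift Tq := by
    ext a
    simp [Tq]
  rw [← h]
  rfl

theorem Tq_rel : ∀ r ∈ coxList edges ++ extra, FreeGroup.lift Tq r = 1 := by
  intro r hr
  rw [lift_q, QuotientGroup.eq_one_iff, Matrix.SpecialLinearGroup.mem_center_iff]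
  exact T_center r hr

noncomputable def ψ : Q →* PSL3 := presMap edges extra Tq Tq_rel

theorem T_a_nc : ¬ ∃ c : F4, c ^ Fintype.card (Fin 3) = 1 ∧ Matrix.scalar (Fin 3) c = ((T .a : SL3) : M3) := by
  decide +kernel

theorem ψ_ne : ψ (PresentedGroup.of .a) ≠ 1 := by
  show presMap edges extra Tq Tq_rel (PresentedGroup.of .a) ≠ 1
  rw [presMap_of, Tq, Ne, QuotientGroup.eq_one_iff, Matrix.SpecialLinearGroup.mem_center_iff]
  exact T_a_nc

theorem card_PSL3 : Nat.card PSL3 = 20160 := by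
  have h := Classical.card_GL_eq_gcd_mul_card_PSL (F := F4) 3 (by norm_num)
  rw [Matrix.card_GL_field, Nat.card_eq_fintype_card (α := F4), F4.card_eq, Fin.prod_univ_three] at h
  generalize Nat.card PSL3 = c at h ⊢
  norm_num at h
  omega

theorem ψ_bij : Function.Bijective ψ := by
  have hinj := injective_of_simple M21O.main.1 ψ ψ_ne
  have : Finite PSL3 := Nat.finite_of_card_ne_zero (by rw [card_PSL3]; norm_num)
  apply hinj.bijective_of_nat_card_le
  rw [card_PSL3, M21O.main.2]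

def la : List ℕ := [0, 1, 17, 3, 20, 14, 10, 7, 13, 9, 6, 19, 15, 8, 5, 12, 16, 2, 18, 11, 4, 22, 21, 23]
def lb : List ℕ := [0, 1, 12, 6, 5, 4, 3, 15, 8, 14, 13, 18, 2, 10, 9, 7, 16, 17, 11, 22, 20, 21, 19, 23]
def lc : List ℕ := [0, 1, 2, 3, 20, 5, 8, 18, 6, 16, 13, 19, 21, 10, 14, 22, 9, 17, 7, 11, 4, 12, 15, 23]
def ld : List ℕ := [0, 1, 11, 15, 9, 16, 17, 7, 18, 4, 19, 2, 12, 13, 14, 3, 5, 6, 8, 10, 20, 22, 21, 23]
def le : List ℕ := [0, 1, 3, 2, 10, 17, 16, 7, 22, 19, 4, 15, 12, 13, 14, 11, 6, 5, 21, 9, 20, 18, 8, 23]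

def Lp : Gen → List ℕ
  | .a => la
  | .b => lb
  | .c => lc
  | .d => ld
  | .e => le

theorem Lp_perm : ∀ a, isPerm (Lp a) = true := by intro a; cases a <;> decide +kernel
theorem Lp_aut : ∀ a, autCheck (Lp a) = true := by intro a; cases a <;> decide +kernel
theorem Lp_inv : ∀ a, Function.Involutive (lp (Lp a)) := by
  intro a
  unfold Function.Involutive
  cases a <;> decide +kernel
theorem Lp_fix : ∀ a, ∀ b ∈ [23, 0, 1], lp (Lp a) (pt b) = pt b := by
  intro a
  cases a <;> decide +kernel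

def Tc (a : Gen) : Equiv.Perm GolayPt := (Lp_inv a).toPerm

theorem Tc_eq (a : Gen) : Tc a = perm (Lp a) := by
  ext p
  rw [perm_apply (Lp_perm a) p]
  rfl

theorem Tc_rel : ∀ r ∈ coxList edges ++ extra, FreeGroup.lift Tc r = 1 := by decide +kernel

noncomputable def χ0 : Q →* Equiv.Perm GolayPt := presMap edges extra Tc Tc_rel

theorem χ0_mem (q : Q) : χ0 q ∈ stabL M24 [23, 0, 1] := by
  have h := range_le_of_gens χ0 (stabL M24 [23, 0, 1]) (fun a => by
    show presMap edges extra Tc Tc_rel (PresentedGroup.of a) ∈ _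
    rw [presMap_of, mem_stabL]
    refine ⟨?_, fun b hb => ?_⟩
    · rw [Tc_eq]
      exact perm_mem_M24 (Lp_perm a) (Lp_aut a)
    · exact Lp_fix a b hb)
  exact h ⟨q, rfl⟩

noncomputable def χ : Q →* stabL M24 [23, 0, 1] := χ0.codRestrict _ χ0_mem

theorem χ_ne : χ (PresentedGroup.of .a) ≠ 1 := by
  intro h
  have h1 : χ0 (PresentedGroup.of .a) = 1 := congrArg Subtype.val h
  have h2 : presMap edges extra Tc Tc_rel (PresentedGroup.of .a) = 1 := h1
  rw [presMap_of] at h2
  revert h2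
  decide +kernel

theorem card_triple (p q r : GolayPt) (hpq : p ≠ q) (hpr : p ≠ r) (hqr : q ≠ r) :
    Nat.card ↥(MulAction.stabilizer M24 p ⊓ MulAction.stabilizer M24 q ⊓ MulAction.stabilizer M24 r) = 20160 := by
  have heq : MulAction.stabilizer M24 p ⊓ MulAction.stabilizer M24 q ⊓ MulAction.stabilizer M24 r =
      fixingSubgroup M24 ({p, q, r} : Set GolayPt) := by
    ext g
    rw [mem_fixingSubgroup_iff, Subgroup.mem_inf, Subgroup.mem_inf, MulAction.mem_stabilizer_iff,
      MulAction.mem_stabilizer_iff, MulAction.mem_stabilizer_iff]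
    simp [and_assoc]
  have hc : ({p, q, r} : Set GolayPt).ncard = 3 := Set.ncard_eq_three.mpr ⟨p, q, r, hpq, hpr, hqr, rfl⟩
  have h := card_fixing_M24 ({p, q, r} : Set GolayPt) (by rw [hc]; norm_num)
  rw [hc] at h
  rw [heq]
  norm_num [Nat.choose, Nat.factorial] at h
  omega

theorem triple_equiv (p q r : GolayPt) (hpq : p ≠ q) (hpr : p ≠ r) (hqr : q ≠ r) :
    Nonempty (↥(MulAction.stabilizer M24 p ⊓ MulAction.stabilizer M24 q ⊓ MulAction.stabilizer M24 r) ≃* stabL M24 [23, 0, 1]) := by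
  have htr := M24_k_transitive (k := 3) (by norm_num)
  let x : Fin 3 ↪ GolayPt := ⟨![pt 23, pt 0, pt 1], by decide⟩
  let y : Fin 3 ↪ GolayPt := ⟨![p, q, r], by
    intro i j hij
    fin_cases i <;> fin_cases j <;> simp_all⟩
  obtain ⟨g, hg⟩ := htr.exists_smul_eq x y
  have h0 : g.1 (pt 23) = p := congrArg (fun f : Fin 3 ↪ GolayPt => f 0) hg
  have h1 : g.1 (pt 0) = q := congrArg (fun f : Fin 3 ↪ GolayPt => f 1) hg
  have h2 : g.1 (pt 1) = r := congrArg (fun f : Fin 3 ↪ GolayPt => f 2) hg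
  apply nonempty_equiv_of_conj _ _ g.2 (stabL_le _ _)
  intro z
  rw [Subgroup.mem_inf, Subgroup.mem_inf, MulAction.mem_stabilizer_iff, MulAction.mem_stabilizer_iff,
    MulAction.mem_stabilizer_iff, mem_stabL]
  constructor
  · rintro ⟨⟨h3, h4⟩, h5⟩
    refine ⟨M24.mul_mem (M24.mul_mem (M24.inv_mem g.2) z.2) g.2, fun b hb => ?_⟩
    simp only [List.mem_cons, List.not_mem_nil, or_false] at hb
    rcases hb with rfl | rfl | rfl
    · rw [conj_fix_iff, h0]
      exact h3
    · rw [conj_fix_iff, h1]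
      exact h4
    · rw [conj_fix_iff, h2]
      exact h5
  · rintro ⟨-, h⟩
    have h3 := h 23 (by simp)
    have h4 := h 0 (by simp)
    have h5 := h 1 (by simp)
    rw [conj_fix_iff, h0] at h3
    rw [conj_fix_iff, h1] at h4
    rw [conj_fix_iff, h2] at h5
    exact ⟨⟨h3, h4⟩, h5⟩

section congr
variable {F G : Type*} [Field F] [Field G]

noncomputable def slEquiv (e : F ≃+* G) :
    Matrix.SpecialLinearGroup (Fin 3) F ≃* Matrix.SpecialLinearGroup (Fin 3) G :=
  MonoidHom.toMulEquiv (Matrix.SpecialLinearGroup.map e.toRingHom) (Matrix.SpecialLinearGroup.map e.symm.toRingHom)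
    (by ext; simp) (by ext; simp)

theorem center_map_eq {A B : Type*} [Group A] [Group B] (E : A ≃* B) :
    (Subgroup.center A).map E.toMonoidHom = Subgroup.center B := by
  ext x
  constructor
  · rintro ⟨y, hy, rfl⟩
    rw [SetLike.mem_coe, Subgroup.mem_center_iff] at hy
    rw [Subgroup.mem_center_iff]
    intro g
    obtain ⟨g', rfl⟩ := E.surjective g
    show E g' * E y = E y * E g'
    rw [← map_mul, ← map_mul, hy]
  · intro hx
    refine ⟨E.symm x, ?_, by simp⟩
    rw [Subgroup.mem_center_iff] at hx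
    rw [SetLike.mem_coe, Subgroup.mem_center_iff]
    intro g
    apply E.injective
    rw [map_mul, map_mul, E.apply_symm_apply, hx]

noncomputable def pslEquiv (e : F ≃+* G) :
    Matrix.ProjectiveSpecialLinearGroup (Fin 3) F ≃* Matrix.ProjectiveSpecialLinearGroup (Fin 3) G :=
  QuotientGroup.congr _ _ (slEquiv e) (center_map_eq _)

end congr

theorem main (p q r : GolayPt) (hpq : p ≠ q) (hpr : p ≠ r) (hqr : q ≠ r) (F : Type) [Field F] [Fintype F] (hF : Fintype.card F = 4) :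
    Nonempty (↥(MulAction.stabilizer M24 p ⊓ MulAction.stabilizer M24 q ⊓ MulAction.stabilizer M24 r) ≃*
      Matrix.ProjectiveSpecialLinearGroup (Fin 3) F) := by
  obtain ⟨e1⟩ := triple_equiv p q r hpq hpr hqr
  have hc1 := card_triple p q r hpq hpr hqr
  have hc2 : Nat.card (stabL M24 [23, 0, 1]) = 20160 := by
    rw [← hc1]
    exact (Nat.card_congr e1.toEquiv).symm
  have hχ : Function.Bijective χ := by
    have hinj := injective_of_simple M21O.main.1 χ χ_ne
    have : Finite (stabL M24 [23, 0, 1]) := Nat.finite_of_card_ne_zero (by rw [hc2]; norm_num)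
    apply hinj.bijective_of_nat_card_le
    rw [hc2, M21O.main.2]
  let e2 : Q ≃* stabL M24 [23, 0, 1] := MulEquiv.ofBijective χ hχ
  let e3 : Q ≃* PSL3 := MulEquiv.ofBijective ψ ψ_bij
  have hk : Fintype.card F4 = Fintype.card F := by rw [F4.card_eq, hF]
  let e4 : F4 ≃+* F := FiniteField.ringEquivOfCardEq hk
  exact ⟨e1.trans (e2.symm.trans (e3.trans (pslEquiv e4)))⟩

end Cfsg.Agent.Lib.ToddCox.M21
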